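import Mathlib
import Cfsg.Agent.Lib.Helper99.GUSP.Defs

/-!
# GUSP (S5976, helper99): package [ARITH]
-/

set_option autoImplicit false

namespace Cfsg.Agent.Lib.Helper61.GUSP

open Cfsg.Agent.Lib.Helper99.GUSP

/-- [ARITH] -/
theorem pkgArith : PkgArith := by
  intro q r d hr hr2 hrq hdvd
  have hrf : Fact r.Prime := ⟨hr⟩
  have hq0 : q ≠ 0 := by
    rintro rfl
    exact hrq (dvd_zero r)
  obtain ⟨j, hj, hjd⟩ := (Prime.dvd_finsetProd_iff hr.prime _).mp hdvd
  rw [Finset.mem_range] at hj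
  have hpos : 1 ≤ q ^ (j + 1) := Nat.one_le_pow _ _ (Nat.pos_of_ne_zero hq0)
  by_cases hev : Even j
  · left
    rw [if_pos hev] at hjd
    have h1 : (q : ZMod r) ^ (j + 1) = 1 := by
      have h2 : ((q ^ (j + 1) - 1 : ℕ) : ZMod r) = 0 := (CharP.cast_eq_zero_iff (ZMod r) r _).mpr hjd
      rw [Nat.cast_sub hpos, Nat.cast_pow, Nat.cast_one, sub_eq_zero] at h2
      exact h2
    have h3 : orderOf (q : ZMod r) ∣ j + 1 := orderOf_dvd_of_pow_eq_one h1
    exact ⟨Odd.of_dvd_nat hev.add_one h3, (Nat.le_of_dvd (by omega) h3).trans (by omega)⟩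
  · right
    rw [if_neg hev] at hjd
    have hm : Even (j + 1) := by
      rcases Nat.even_or_odd j with h | h
      · exact absurd h hev
      · exact h.add_one
    have h1 : (q : ZMod r) ^ (j + 1) = -1 := by
      have h2 : ((q ^ (j + 1) + 1 : ℕ) : ZMod r) = 0 := (CharP.cast_eq_zero_iff (ZMod r) r _).mpr hjd
      rw [Nat.cast_add, Nat.cast_pow, Nat.cast_one] at h2
      exact eq_neg_of_add_eq_zero_left h2
    have hne : (-1 : ZMod r) ≠ 1 := by
      intro h
      have h2 : ((2 : ℕ) : ZMod r) = 0 := by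
        have h3 : (1 : ZMod r) + 1 = 0 := by
          nth_rewrite 1 [← h]
          exact neg_add_cancel 1
        rw [Nat.cast_ofNat, ← one_add_one_eq_two]
        exact h3
      rw [CharP.cast_eq_zero_iff (ZMod r) r] at h2
      exact hr2 ((Nat.prime_dvd_prime_iff_eq hr Nat.prime_two).mp h2)
    have hi2m : orderOf (q : ZMod r) ∣ 2 * (j + 1) := by
      apply orderOf_dvd_of_pow_eq_one
      rw [mul_comm, pow_mul, h1, neg_one_sq]
    have hnot : ¬ orderOf (q : ZMod r) ∣ j + 1 := by
      intro h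
      rw [orderOf_dvd_iff_pow_eq_one, h1] at h
      exact hne h
    refine ⟨?_, (Nat.le_of_dvd (by omega) hi2m).trans (by omega)⟩
    by_contra h4
    rcases Nat.even_or_odd (orderOf (q : ZMod r)) with he | ho
    · obtain ⟨i', hi'⟩ := he
      have hi'odd : Odd i' := by
        rcases Nat.even_or_odd i' with ⟨t, ht⟩ | h
        · exfalso
          apply h4
          exact ⟨t, by omega⟩
        · exact h
      have h5 : i' ∣ 2 * (j + 1) := (Dvd.intro 2 (by omega : i' * 2 = orderOf (q : ZMod r))).trans hi2m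
      have h6 : i' ∣ j + 1 := Nat.Coprime.dvd_of_dvd_mul_left (Nat.coprime_two_right.mpr hi'odd) h5
      have h7 : 2 * i' ∣ j + 1 :=
        Nat.Coprime.mul_dvd_of_dvd_of_dvd (Nat.coprime_two_left.mpr hi'odd) hm.two_dvd h6
      apply hnot
      have h8 : orderOf (q : ZMod r) = 2 * i' := by omega
      rw [h8]
      exact h7
    · exact hnot (Nat.Coprime.dvd_of_dvd_mul_left (Nat.coprime_two_right.mpr ho) hi2m)

end Cfsg.Agent.Lib.Helper61.GUSP
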