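import Mathlib
import Cfsg.Agent.Lib.Helper99.GUSP.Defs

/-!
# GUSP (S5976, helper99): package [COMM]

The commutant of a cyclic irreducible endomorphism consists of polynomials in it.
-/

set_option autoImplicit false

namespace Cfsg.Agent.Lib.Helper61.GUSP

open Cfsg.Agent.Lib.Helper99.GUSP Polynomial

universe u

/-- [COMM] -/
theorem pkgComm : PkgComm.{u} := by
  intro F _ V _ _ _ y T π hπ hyπ hdeg hyT
  have hn : 0 < π.natDegree := hπ.natDegree_pos
  obtain ⟨w, hw⟩ : ∃ w : V, w ≠ 0 := by
    apply (Module.finrank_pos_iff_exists_ne_zero (R := F)).mp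
    rw [← hdeg]
    exact hn
  -- `T` commutes with polynomials in `y`
  have hcomm : ∀ h : F[X], T * aeval y h = aeval y h * T := by
    intro h
    have h1 : aeval y h ∈ Subalgebra.centralizer F ({T} : Set (Module.End F V)) := by
      have h2 : Algebra.adjoin F ({y} : Set (Module.End F V)) ≤
          Subalgebra.centralizer F ({T} : Set (Module.End F V)) := by
        apply Algebra.adjoin_le
        intro x hx
        rw [Set.mem_singleton_iff] at hx
        subst hx
        rw [SetLike.mem_coe, Subalgebra.mem_centralizer_iff]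
        intro g hg
        rw [Set.mem_singleton_iff] at hg
        subst hg
        exact hyT.symm
      exact h2 (Polynomial.aeval_mem_adjoin_singleton F y)
    rw [Subalgebra.mem_centralizer_iff] at h1
    exact h1 T rfl
  -- the evaluation map on polynomials of degree `< n`
  obtain ⟨ψ, hψ⟩ : ∃ ψ : ↥(Polynomial.degreeLT F π.natDegree) →ₗ[F] V,
      ∀ g : ↥(Polynomial.degreeLT F π.natDegree), ψ g = aeval y (g : F[X]) w :=
    ⟨((LinearMap.applyₗ w).comp (aeval y).toLinearMap).domRestrict _, fun g => rfl⟩
  have hfd : FiniteDimensional F ↥(Polynomial.degreeLT F π.natDegree) :=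
    LinearEquiv.finiteDimensional (Polynomial.degreeLTEquiv F π.natDegree).symm
  have hfr : Module.finrank F ↥(Polynomial.degreeLT F π.natDegree) = Module.finrank F V := by
    rw [LinearEquiv.finrank_eq (Polynomial.degreeLTEquiv F π.natDegree), Module.finrank_fin_fun,
      hdeg]
  have hinj : Function.Injective ψ := by
    rw [injective_iff_map_eq_zero]
    intro g hg
    by_contra hg0
    have hg0' : (g : F[X]) ≠ 0 := fun h => hg0 (Subtype.ext h)
    have hdegg : (g : F[X]).natDegree < π.natDegree := by
      rw [Polynomial.natDegree_lt_iff_degree_lt hg0']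
      exact Polynomial.mem_degreeLT.mp g.2
    have hnd : ¬ π ∣ (g : F[X]) := by
      intro h
      have := Polynomial.natDegree_le_of_dvd h hg0'
      omega
    obtain ⟨u, v, huv⟩ := (hπ.coprime_iff_not_dvd).mpr hnd
    apply hw
    have h1 : aeval y (u * π + v * (g : F[X])) w = w := by
      rw [huv, map_one]
      rfl
    rw [hψ] at hg
    rw [map_add, map_mul, map_mul, hyπ, mul_zero, zero_add, Module.End.mul_apply, hg,
      map_zero] at h1
    exact h1.symm
  have hsurj : Function.Surjective ψ :=
    (LinearMap.injective_iff_surjective_of_finrank_eq_finrank hfr).mp hinj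
  obtain ⟨g, hg⟩ := hsurj (T w)
  rw [hψ] at hg
  refine ⟨(g : F[X]), ?_⟩
  apply LinearMap.ext
  intro w'
  obtain ⟨h, hh⟩ := hsurj w'
  rw [hψ] at hh
  rw [← hh]
  calc T (aeval y (h : F[X]) w) = (T * aeval y (h : F[X])) w := rfl
    _ = (aeval y (h : F[X]) * T) w := by rw [hcomm]
    _ = aeval y (h : F[X]) (T w) := rfl
    _ = aeval y (h : F[X]) (aeval y (g : F[X]) w) := by rw [hg]
    _ = (aeval y ((h : F[X]) * (g : F[X]))) w := by
      rw [map_mul]
      rfl
    _ = (aeval y ((g : F[X]) * (h : F[X]))) w := by rw [mul_comm]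
    _ = aeval y (g : F[X]) (aeval y (h : F[X]) w) := by
      rw [map_mul]
      rfl

end Cfsg.Agent.Lib.Helper61.GUSP
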