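import Mathlib
import Cfsg.Agent.Lib.Helper99.GUSP.Defs

/-!
# GUSP (S5976, helper99): package [EVEN]

`α`-invariant subspaces have even dimension when `α² = a` is a non-square scalar.
-/

set_option autoImplicit false

namespace Cfsg.Agent.Lib.Helper61.GUSP

open Cfsg.Agent.Lib.Helper99.GUSP Matrix

universe u

/-- [EVEN] -/
theorem pkgEven : PkgEven.{u} := by
  intro F _ d a α ha hα W hW
  have ha0 : a ≠ 0 := by
    rintro rfl
    exact ha ⟨0, by simp⟩
  have hW' : ∀ w ∈ W, Matrix.toLin' α w ∈ W := by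
    intro w hw
    rw [Matrix.toLin'_apply]
    exact hW w hw
  obtain ⟨f, hf⟩ : ∃ f : W →ₗ[F] W, ∀ w : W, (f w : SI d → F) = α *ᵥ (w : SI d → F) :=
    ⟨(Matrix.toLin' α).restrict hW', fun w => by
      rw [LinearMap.coe_restrict_apply, Matrix.toLin'_apply]⟩
  have hff : f ∘ₗ f = a • LinearMap.id := by
    apply LinearMap.ext
    intro w
    apply Subtype.ext
    rw [LinearMap.comp_apply, hf, hf, Matrix.mulVec_mulVec, hα, Matrix.smul_mulVec,
      Matrix.one_mulVec]
    rfl
  have hdet : LinearMap.det f * LinearMap.det f = a ^ Module.finrank F W := by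
    rw [← LinearMap.det_comp, hff, LinearMap.det_smul, LinearMap.det_id, mul_one]
  rcases Nat.even_or_odd (Module.finrank F W) with he | ho
  · exact he
  · exfalso
    obtain ⟨m, hm⟩ := ho
    rw [hm] at hdet
    apply ha
    have ham : a ^ m ≠ 0 := pow_ne_zero _ ha0
    refine ⟨LinearMap.det f * (a ^ m)⁻¹, ?_⟩
    have h1 : LinearMap.det f * (a ^ m)⁻¹ * (LinearMap.det f * (a ^ m)⁻¹) =
        (LinearMap.det f * LinearMap.det f) * ((a ^ m)⁻¹ * (a ^ m)⁻¹) := by ring
    rw [h1, hdet]
    field_simp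
    ring

end Cfsg.Agent.Lib.Helper61.GUSP
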